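import Mathlib
import Cfsg.Agent.Lib.Helper94.OMG.Defs
import Cfsg.Agent.Lib.Helper14.Forms

/-!
# Project OMG (S2415), package [LINEM]

A subgroup containing the long root groups `X, Y, Z` of the hyperbolic part and all short root
elements contains every Siegel transformation of the minus space.
-/

set_option autoImplicit false
open scoped Matrix MatrixGroups

namespace Cfsg.Agent.Lib.Helper52.OMG

open Cfsg.Agent.Lib.Helper31.Siegel Cfsg.Agent.Lib.Helper32.OPG Cfsg.Agent.Lib.Helper64.OParM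
open Cfsg.Agent.Lib.Helper94.OMG

universe u

section Aux

variable {k : ℕ} {F : Type u} [Field F] {a b : F}

theorem BM_add_left (x x' y : MI k → F) :
    BM k a b (x + x') y = BM k a b x y + BM k a b x' y := by
  unfold BM
  rw [← Cfsg.Agent.Lib.Helper14.minusQF_coe k F a b]
  exact QuadraticMap.polar_add_left (Q := Cfsg.Agent.Lib.Helper14.minusQF k F a b) x x' y

theorem BM_smul_left (c : F) (x y : MI k → F) : BM k a b (c • x) y = c * BM k a b x y := by
  unfold BM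
  rw [← Cfsg.Agent.Lib.Helper14.minusQF_coe k F a b]
  exact QuadraticMap.polar_smul_left (Q := Cfsg.Agent.Lib.Helper14.minusQF k F a b) c x y

theorem BM_comm (x y : MI k → F) : BM k a b x y = BM k a b y x :=
  QuadraticMap.polar_comm _ x y

theorem BM_eM (i : Fin k) (x : MI k → F) : BM k a b (eM i) x = x (Sum.inl (Sum.inr i)) :=
  Cfsg.Agent.Lib.Helper14.minus_polar_inl k F a b i x

theorem BM_fM (i : Fin k) (x : MI k → F) : BM k a b (fM i) x = x (Sum.inl (Sum.inl i)) :=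
  Cfsg.Agent.Lib.Helper14.minus_polar_inr k F a b i x

theorem isSieg_conj {u v : MI k → F} {c : F} {σ : ↥(GM k F a b)} (hσ : IsSieg a b u v c σ)
    (h : ↥(GM k F a b)) : IsSieg a b (matM h *ᵥ u) (matM h *ᵥ v) c (h * σ * h⁻¹) := by
  intro x
  have e1 : BM k a b u (matM h⁻¹ *ᵥ x) = BM k a b (matM h *ᵥ u) x := by
    rw [← BM_act h u (matM h⁻¹ *ᵥ x), actM_inv]
  have e2 : BM k a b v (matM h⁻¹ *ᵥ x) = BM k a b (matM h *ᵥ v) x := by
    rw [← BM_act h v (matM h⁻¹ *ᵥ x), actM_inv]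
  rw [mulM_act, mulM_act, hσ (matM h⁻¹ *ᵥ x), Matrix.mulVec_sub, Matrix.mulVec_add,
    Matrix.mulVec_smul, Matrix.mulVec_smul, actM_inv, e1, e2]

theorem plane_zero (hab : Aniso a b) (x : MI k → F) (hQ : QM k a b x = 0)
    (h : ∀ i : Fin k, x (Sum.inl (Sum.inl i)) * x (Sum.inl (Sum.inr i)) = 0) :
    x (Sum.inr 0) = 0 ∧ x (Sum.inr 1) = 0 := by
  have hQ' : (∑ i : Fin k, x (Sum.inl (Sum.inl i)) * x (Sum.inl (Sum.inr i))) +
      (x (Sum.inr 0) ^ 2 + a * x (Sum.inr 0) * x (Sum.inr 1) + b * x (Sum.inr 1) ^ 2) = 0 := hQ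
  rw [Finset.sum_eq_zero (fun i _ => h i), zero_add] at hQ'
  exact hab _ _ hQ'

theorem QM_of_plane_zero (x : MI k → F) (h0 : ∀ t : Fin 2, x (Sum.inr t) = 0) :
    QM k a b x = QF k F (x ∘ Sum.inl) := by
  show (∑ i : Fin k, x (Sum.inl (Sum.inl i)) * x (Sum.inl (Sum.inr i))) +
      (x (Sum.inr 0) ^ 2 + a * x (Sum.inr 0) * x (Sum.inr 1) + b * x (Sum.inr 1) ^ 2) =
      ∑ i : Fin k, (x ∘ Sum.inl) (Sum.inl i) * (x ∘ Sum.inl) (Sum.inr i)
  rw [h0 0, h0 1]
  simp

theorem eq_emb (x : MI k → F) (h0 : ∀ t : Fin 2, x (Sum.inr t) = 0) : x = emb (x ∘ Sum.inl) := by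
  ext (j | t)
  · simp [emb]
  · simp [emb, h0 t]

theorem Em_emb (σ : ↥(Iso k F)) (p : Vec k F) :
    matM (Em k F a b σ) *ᵥ emb p = emb (mat σ *ᵥ p) := by
  rw [matM_Em]
  rfl

theorem emb_add (p q : Vec k F) : (emb (p + q) : MI k → F) = emb p + emb q := by
  ext (j | t) <;> simp [emb]

theorem emb_smul (c : F) (p : Vec k F) : (emb (c • p) : MI k → F) = c • emb p := by
  ext (j | t) <;> simp [emb]

theorem emb_zero : (emb (0 : Vec k F) : MI k → F) = 0 := by
  ext (j | t) <;> simp [emb]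

/-- the stabiliser of `e_{i0}`. -/
def stabE (k : ℕ) (F : Type u) [Field F] (a b : F) (i0 : Fin k) : Subgroup ↥(GM k F a b) where
  carrier := {g | matM g *ᵥ (eM i0 : MI k → F) = eM i0}
  mul_mem' := by
    intro g h hg hh
    have hg' : matM g *ᵥ (eM i0 : MI k → F) = eM i0 := hg
    have hh' : matM h *ᵥ (eM i0 : MI k → F) = eM i0 := hh
    show matM (g * h) *ᵥ (eM i0 : MI k → F) = eM i0
    rw [mulM_act, hh', hg']
  one_mem' := oneM_act _
  inv_mem' := by
    intro g hg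
    have hg' : matM g *ᵥ (eM i0 : MI k → F) = eM i0 := hg
    show matM g⁻¹ *ᵥ (eM i0 : MI k → F) = eM i0
    have h := invM_act g (eM i0 : MI k → F)
    rw [hg'] at h
    exact h

theorem mem_stabE {i0 : Fin k} {g : ↥(GM k F a b)} :
    g ∈ stabE k F a b i0 ↔ matM g *ᵥ (eM i0 : MI k → F) = eM i0 := Iff.rfl

theorem eich_fix {i0 : Fin k} {u w : MI k → F} {σ : ↥(GM k F a b)} (hσ : IsEich a b u w σ)
    (h1 : BM k a b u (eM i0) = 0) (h2 : BM k a b w (eM i0) = 0) :
    matM σ *ᵥ (eM i0 : MI k → F) = eM i0 := by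
  rw [hσ, h1, h2]
  simp

theorem Em_fix {i0 : Fin k} {p r : Vec k F} {c : F} {τ : ↥(Iso k F)} (hτ : IsSiegel p r c τ)
    (h1 : B (E i0 : Vec k F) r = 0) (h2 : B (E i0 : Vec k F) p = 0) :
    matM (Em k F a b τ) *ᵥ (eM i0 : MI k → F) = eM i0 := by
  rw [← emb_E, Em_emb, hτ, h1, h2]
  simp

end Aux

/-- **[LINEM]** from [KILLZ], OPG's [RED] and the existence of Siegel elements. -/
theorem pkgLineM_of (hKillZ : PkgKillZ.{u}) (hRed : Cfsg.Agent.Lib.Helper32.OPG.PkgRed.{u})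
    (hExist : Cfsg.Agent.Lib.Helper31.Siegel.PkgExist.{u}) : PkgLineM.{u} := by
  intro F _ _ k a b hab hk K hX hY hZ hshort u v c hQu hQv hBuv σ hσ
  obtain ⟨i0, hi0⟩ : ∃ i0 : Fin k, i0.val = 0 := ⟨⟨0, by omega⟩, rfl⟩
  obtain ⟨i1, hi1⟩ : ∃ i1 : Fin k, i1.val = 1 := ⟨⟨1, by omega⟩, rfl⟩
  obtain ⟨i2, hi2⟩ : ∃ i2 : Fin k, i2.val = 2 := ⟨⟨2, by omega⟩, rfl⟩
  have h01 : i0 ≠ i1 := by intro h; rw [h] at hi0; omega
  have h02 : i0 ≠ i2 := by intro h; rw [h] at hi0; omega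
  have h12 : i1 ≠ i2 := by intro h; rw [h] at hi1; omega
  -- reduction claim
  have hclaim : u ≠ 0 → ∃ g ∈ K, ∃ α β : F, matM g *ᵥ u = eM i0 ∧
      matM g *ᵥ v = α • (eM i0 : MI k → F) + β • eM i1 := by
    intro hu
    -- step 1
    have hex : ∃ i ∈ (Set.univ : Set (Fin k)),
        u (Sum.inl (Sum.inl i)) ≠ 0 ∨ u (Sum.inl (Sum.inr i)) ≠ 0 := by
      by_contra hcon
      push Not at hcon
      have hz := plane_zero hab u hQu (fun i => by rw [(hcon i (Set.mem_univ i)).1, zero_mul])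
      apply hu
      ext ((j | j) | t)
      · exact (hcon j (Set.mem_univ j)).1
      · exact (hcon j (Set.mem_univ j)).2
      · have ht : t = 0 ∨ t = 1 := by fin_cases t <;> simp
        rcases ht with rfl | rfl
        · exact hz.1
        · exact hz.2
    obtain ⟨g₁, hg₁K, hg₁z, -⟩ := hKillZ F k a b hab Set.univ K
      (fun i _ w hw σ' h => hshort i w hw σ' h) u hex
    -- step 2
    obtain ⟨p, hp⟩ : ∃ p : Vec k F, p = (matM g₁ *ᵥ u) ∘ Sum.inl := ⟨_, rfl⟩
    have hg₁u : matM g₁ *ᵥ u = emb p := by rw [hp]; exact eq_emb _ hg₁z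
    have hp0 : p ≠ 0 := by
      intro h0
      apply hu
      have h1 := invM_act g₁ u
      rw [hg₁u, h0, emb_zero, Matrix.mulVec_zero] at h1
      exact h1.symm
    have hQp : QF k F p = 0 := by
      rw [hp, ← QM_of_plane_zero (a := a) (b := b) _ hg₁z, QM_act]; exact hQu
    obtain ⟨g₂', hg₂'K, hg₂'p⟩ := hRed k F Set.univ i0 i1 (Set.mem_univ _) (Set.mem_univ _) h01
      (K.comap (Em k F a b)) hX hY hZ p hp0 hQp (fun i hi => absurd (Set.mem_univ i) hi)
    have hg₂K : Em k F a b g₂' ∈ K := hg₂'K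
    obtain ⟨h, hh⟩ : ∃ h : ↥(GM k F a b), h = Em k F a b g₂' * g₁ := ⟨_, rfl⟩
    have hhK : h ∈ K := by rw [hh]; exact K.mul_mem hg₂K hg₁K
    have hhu : matM h *ᵥ u = eM i0 := by
      rw [hh, mulM_act, hg₁u, Em_emb, hg₂'p, emb_E]
    -- step 3
    obtain ⟨v₁, hv₁⟩ : ∃ v₁ : MI k → F, v₁ = matM h *ᵥ v := ⟨_, rfl⟩
    have hQv₁ : QM k a b v₁ = 0 := by rw [hv₁, QM_act]; exact hQv
    have hy0 : v₁ (Sum.inl (Sum.inr i0)) = 0 := by
      rw [← BM_eM (a := a) (b := b) i0 v₁, hv₁, ← hhu, BM_act]; exact hBuv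
    by_cases hcase : ∃ i : Fin k, i ≠ i0 ∧
        (v₁ (Sum.inl (Sum.inl i)) ≠ 0 ∨ v₁ (Sum.inl (Sum.inr i)) ≠ 0)
    swap
    · -- `v₁ = α e₀`
      push Not at hcase
      have hz := plane_zero hab v₁ hQv₁ (fun i => by
        by_cases hi : i = i0
        · rw [hi, hy0, mul_zero]
        · rw [(hcase i hi).1, zero_mul])
      refine ⟨h, hhK, v₁ (Sum.inl (Sum.inl i0)), 0, hhu, ?_⟩
      rw [← hv₁, zero_smul, add_zero]
      ext ((j | j) | t)
      · by_cases hj : j = i0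
        · rw [hj]; simp
        · rw [(hcase j hj).1]; simp [Pi.single_apply, hj]
      · by_cases hj : j = i0
        · rw [hj, hy0]; simp
        · rw [(hcase j hj).2]; simp
      · have ht : t = 0 ∨ t = 1 := by fin_cases t <;> simp
        rcases ht with rfl | rfl
        · rw [hz.1]; simp
        · rw [hz.2]; simp
    · -- main case
      obtain ⟨K', hK'⟩ : ∃ K' : Subgroup ↥(GM k F a b), K' = K ⊓ stabE k F a b i0 := ⟨_, rfl⟩
      have hshort' : ∀ i : Fin k, i ∈ {i : Fin k | i ≠ i0} → ∀ w : MI k → F, IsZ w →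
          ∀ σ' : ↥(GM k F a b), (IsEich a b (eM i) w σ' ∨ IsEich a b (fM i) w σ') → σ' ∈ K' := by
        intro i hi w hw σ' hσ'
        have hi' : i ≠ i0 := hi
        rw [hK', Subgroup.mem_inf]
        refine ⟨hshort i w hw σ' hσ', ?_⟩
        rw [mem_stabE]
        have hw0 : BM k a b w (eM i0) = 0 := by
          rw [BM_comm, BM_eM]; exact hw _
        rcases hσ' with h1 | h1
        · exact eich_fix h1 (by rw [BM_eM]; simp) hw0
        · exact eich_fix h1 (by rw [BM_fM]; simp [Pi.single_apply, hi']) hw0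
      obtain ⟨i, hi, hiv⟩ := hcase
      obtain ⟨g₃, hg₃K', hg₃z, hg₃c⟩ := hKillZ F k a b hab {i : Fin k | i ≠ i0} K' hshort' v₁
        ⟨i, hi, hiv⟩
      have hg₃ : g₃ ∈ K ∧ matM g₃ *ᵥ (eM i0 : MI k → F) = eM i0 := by
        rw [hK', Subgroup.mem_inf] at hg₃K'; exact hg₃K'
      obtain ⟨hx0', hy0'⟩ := hg₃c i0 (fun h => h rfl)
      obtain ⟨v₃, hv₃⟩ : ∃ v₃ : MI k → F, v₃ = matM g₃ *ᵥ v₁ := ⟨_, rfl⟩
      rw [← hv₃] at hx0' hy0' hg₃z
      obtain ⟨α, hα⟩ : ∃ α : F, α = v₁ (Sum.inl (Sum.inl i0)) := ⟨_, rfl⟩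
      rw [← hα] at hx0'
      rw [hy0] at hy0'
      have hQv₃ : QM k a b v₃ = 0 := by rw [hv₃, QM_act]; exact hQv₁
      obtain ⟨p', hp'⟩ : ∃ p' : Vec k F, p' = v₃ ∘ Sum.inl - α • E i0 := ⟨_, rfl⟩
      have hv₃e : v₃ = emb p' + α • (eM i0 : MI k → F) := by
        rw [hp', ← emb_E, ← emb_smul, ← emb_add, sub_add_cancel]
        exact eq_emb _ hg₃z
      have hp'0 : p' ≠ 0 := by
        intro h0
        rw [h0, emb_zero, zero_add] at hv₃e
        have h1 := invM_act g₃ v₁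
        rw [← hv₃, hv₃e, Matrix.mulVec_smul] at h1
        have h2 : matM g₃⁻¹ *ᵥ (eM i0 : MI k → F) = eM i0 := by
          have h3 := invM_act g₃ (eM i0 : MI k → F)
          rw [hg₃.2] at h3; exact h3
        rw [h2] at h1
        rcases hiv with h4 | h4
        · apply h4; rw [← h1]; simp [Pi.single_apply, hi]
        · apply h4; rw [← h1]; simp
      have hQp' : QF k F p' = 0 := by
        rw [hp', Q_sub, Q_smul, Q_E, B_smul_right, B_E,
          ← QM_of_plane_zero (a := a) (b := b) _ hg₃z, hQv₃]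
        show (0 : F) + α * α * 0 - α * v₃ (Sum.inl (Sum.inr i0)) = 0
        rw [hy0']; ring
      have hsupp : ∀ j : Fin k, j ∉ {i : Fin k | i ≠ i0} →
          p' (Sum.inl j) = 0 ∧ p' (Sum.inr j) = 0 := by
        intro j hj
        have hj0 : j = i0 := by by_contra h; exact hj h
        rw [hj0, hp']
        constructor
        · show v₃ (Sum.inl (Sum.inl i0)) - α * (E i0 : Vec k F) (Sum.inl i0) = 0
          rw [hx0']; simp
        · show v₃ (Sum.inl (Sum.inr i0)) - α * (E i0 : Vec k F) (Sum.inr i0) = 0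
          rw [hy0']; simp
      have hfix : ∀ (p r : Vec k F) (c' : F) (τ : ↥(Iso k F)), IsSiegel p r c' τ →
          B (E i0 : Vec k F) r = 0 → B (E i0 : Vec k F) p = 0 → τ ∈ K.comap (Em k F a b) →
          τ ∈ K'.comap (Em k F a b) := by
        intro p r c' τ hτ h1 h2 hτK
        show Em k F a b τ ∈ K'
        rw [hK', Subgroup.mem_inf]
        exact ⟨hτK, Em_fix hτ h1 h2⟩
      have hX' : HasX {i : Fin k | i ≠ i0} (K'.comap (Em k F a b)) := by
        intro i j hi hj hij c' τ hτ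
        have hj' : j ≠ i0 := hj
        exact hfix _ _ c' τ hτ (by rw [B_E_Fv, if_neg (Ne.symm hj')]) (B_E_E _ _)
          (hX i j (Set.mem_univ _) (Set.mem_univ _) hij c' τ hτ)
      have hY' : HasY {i : Fin k | i ≠ i0} (K'.comap (Em k F a b)) := by
        intro i j hi hj hij c' τ hτ
        exact hfix _ _ c' τ hτ (B_E_E _ _) (B_E_E _ _)
          (hY i j (Set.mem_univ _) (Set.mem_univ _) hij c' τ hτ)
      have hZ' : HasZ {i : Fin k | i ≠ i0} (K'.comap (Em k F a b)) := by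
        intro i j hi hj hij c' τ hτ
        have hi' : i ≠ i0 := hi
        have hj' : j ≠ i0 := hj
        exact hfix _ _ c' τ hτ (by rw [B_E_Fv, if_neg (Ne.symm hj')])
          (by rw [B_E_Fv, if_neg (Ne.symm hi')])
          (hZ i j (Set.mem_univ _) (Set.mem_univ _) hij c' τ hτ)
      obtain ⟨g₄', hg₄'K, hg₄'p⟩ := hRed k F {i : Fin k | i ≠ i0} i1 i2 (Ne.symm h01)
        (Ne.symm h02) h12 (K'.comap (Em k F a b)) hX' hY' hZ' p' hp'0 hQp' hsupp
      have hg₄ : Em k F a b g₄' ∈ K ∧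
          matM (Em k F a b g₄') *ᵥ (eM i0 : MI k → F) = eM i0 := by
        have h1 : Em k F a b g₄' ∈ K' := hg₄'K
        rw [hK', Subgroup.mem_inf] at h1; exact h1
      refine ⟨Em k F a b g₄' * g₃ * h, K.mul_mem (K.mul_mem hg₄.1 hg₃.1) hhK, α, 1, ?_, ?_⟩
      · rw [mulM_act, mulM_act, hhu, hg₃.2, hg₄.2]
      · rw [mulM_act, mulM_act, ← hv₁, ← hv₃, hv₃e, Matrix.mulVec_add, Matrix.mulVec_smul,
          hg₄.2, Em_emb, hg₄'p, emb_E, one_smul, add_comm]
  -- final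
  by_cases hu : u = 0
  · have h1 : σ = 1 := by
      apply extM_act
      intro x
      rw [hσ x, oneM_act, hu]
      have h0 : BM k a b (0 : MI k → F) x = 0 := by
        have h2 := BM_smul_left (a := a) (b := b) (0 : F) (0 : MI k → F) x
        simpa using h2
      rw [h0]; simp
    rw [h1]; exact K.one_mem
  · obtain ⟨g, hgK, α, β, hgu, hgv⟩ := hclaim hu
    have hσ' := isSieg_conj hσ g
    rw [hgu, hgv] at hσ'
    obtain ⟨τ, hτ⟩ := hExist k F (E i1) (E i0) (isSingLine_E_E (Ne.symm h01)) (c * β)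
    have hτK : Em k F a b τ ∈ K :=
      hY i1 i0 (Set.mem_univ _) (Set.mem_univ _) (Ne.symm h01) (c * β) τ hτ
    have heq : g * σ * g⁻¹ = Em k F a b τ := by
      apply extM_act
      intro x
      rw [hσ' x, matM_Em, hτ, BM_add_left, BM_smul_left, BM_smul_left, BM_eM, BM_eM, B_E, B_E]
      ext ((j | j) | t)
      · by_cases h1 : j = i0
        · have h2 : j ≠ i1 := fun h2 => h01 (h1.symm.trans h2)
          simp [Pi.single_apply, h1, h01]
          ring
        · by_cases h2 : j = i1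
          · simp [Pi.single_apply, h2, Ne.symm h01]
            ring
          · simp [Pi.single_apply, h1, h2]
      · simp [Pi.single_apply]
      · simp
    have e : σ = g⁻¹ * (g * σ * g⁻¹) * g := by group
    rw [e, heq]
    exact K.mul_mem (K.mul_mem (K.inv_mem hgK) hτK) hgK

end Cfsg.Agent.Lib.Helper52.OMG
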