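import Mathlib
import Cfsg.Agent.Lib.Helper52.OMG.LineM
import Cfsg.Agent.Lib.Helper32.OPG.Main
import Cfsg.Agent.Lib.Helper42.OPG.RedX
import Cfsg.Agent.Lib.Helper42.OPG.RedY
import Cfsg.Agent.Lib.Helper76.Siegel.Exist

/-!
# Project OMG (S2415), package [LINEM] from [KILLZ] alone

OPG's [RED] and the existence of Siegel elements are on main.
-/

set_option autoImplicit false

namespace Cfsg.Agent.Lib.Helper52.OMG

open Cfsg.Agent.Lib.Helper94.OMG

universe u

/-- **[LINEM]** from [KILLZ]. -/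
theorem pkgLineM_of_killZ (hKillZ : PkgKillZ.{u}) : PkgLineM.{u} :=
  pkgLineM_of hKillZ
    (Cfsg.Agent.Lib.Helper32.OPG.pkgRed_of Cfsg.Agent.Lib.Helper42.OPG.pkgRedX
      Cfsg.Agent.Lib.Helper42.OPG.pkgRedY)
    Cfsg.Agent.Lib.Helper76.Siegel.pkgExist

end Cfsg.Agent.Lib.Helper52.OMG
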